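import Cfsg.Agent.Helper28.C1692.Data

set_option autoImplicit false

namespace Cfsg.Agent.Helper28.C1692

theorem fin_20 : Cfsg.Agent.Helper28.ptChunk (Cfsg.Agent.Helper28.Gn.finPt D 122760 lv T ftp ftc) 122760 2048 20 = true := by decide +kernel

theorem fin_21 : Cfsg.Agent.Helper28.ptChunk (Cfsg.Agent.Helper28.Gn.finPt D 122760 lv T ftp ftc) 122760 2048 21 = true := by decide +kernel

end Cfsg.Agent.Helper28.C1692
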