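import Cfsg.Agent.Helper28.C1692.Data

set_option autoImplicit false

namespace Cfsg.Agent.Helper28.C1692

theorem rows_44 : Cfsg.Agent.Helper28.ptChunk (Cfsg.Agent.Helper28.Gn.rowChk D) 200583 512 44 = true := by decide +kernel

theorem rows_45 : Cfsg.Agent.Helper28.ptChunk (Cfsg.Agent.Helper28.Gn.rowChk D) 200583 512 45 = true := by decide +kernel

theorem rows_46 : Cfsg.Agent.Helper28.ptChunk (Cfsg.Agent.Helper28.Gn.rowChk D) 200583 512 46 = true := by decide +kernel

theorem rows_47 : Cfsg.Agent.Helper28.ptChunk (Cfsg.Agent.Helper28.Gn.rowChk D) 200583 512 47 = true := by decide +kernel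

end Cfsg.Agent.Helper28.C1692
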